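import Cfsg.Agent.Lib.GenFitting
import Cfsg.Agent.Lib.PResidual

/-! Bender's lemma on cores of overgroups of self-centralizing subnormal subgroups of the generalized Fitting subgroup. -/

set_option autoImplicit false
set_option linter.unusedSectionVars false
set_option linter.style.haveILetI false

namespace CfsgLib.BenderLemma

open Cfsg CfsgLib.GenFitting CfsgLib.Components
open scoped commutatorElement

universe u

variable {H : Type u} [Group H] [Finite H]

theorem disjoint_cores {r q : ℕ} (hr : r.Prime) (hq : q.Prime) (h : r ≠ q) {X Y : Subgroup H} (hX : IsPGroup r X)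
    (hY : IsPGroup q Y) : Disjoint X Y := by
  haveI := Fact.mk hr; haveI := Fact.mk hq
  exact IsPGroup.disjoint_of_ne r q h X Y hX hY

theorem commute_cores {r q : ℕ} (hr : r.Prime) (hq : q.Prime) (h : r ≠ q) {a b : H} (ha : a ∈ pCore r H)
    (hb : b ∈ pCore q H) : a * b = b * a :=
  (Subgroup.commute_of_normal_of_disjoint _ _ inferInstance inferInstance
    (disjoint_cores hr hq h (CfsgLib.Core.isPGroup_pCore r) (CfsgLib.Core.isPGroup_pCore q)) a b ha hb).eq

theorem commute_layer {r : ℕ} (hr : r.Prime) {a b : H} (ha : a ∈ layer H) (hb : b ∈ pCore r H) : a * b = b * a :=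
  (layer_le_centralizer_fitting ha b (CfsgLib.Core.pCore_le_fittingSubgroup hr hb)).symm

/-- What centralizes the layer and every core centralizes the generalized Fitting subgroup. -/
theorem centralizes_genFitting {x : H} (h1 : ∀ y ∈ layer H, x * y = y * x)
    (h2 : ∀ r : ℕ, r.Prime → ∀ y ∈ pCore r H, x * y = y * x) :
    x ∈ Subgroup.centralizer (generalizedFittingSubgroup H : Set H) := by
  have : generalizedFittingSubgroup H ≤ Subgroup.centralizer ({x} : Set H) := by
    rw [genFitting_eq, CfsgLib.Core.fittingSubgroup_eq_iSup_pCore]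
    exact sup_le (fun y hy => Subgroup.mem_centralizer_singleton_iff.mpr (h1 y hy).symm)
      (iSup_le fun r y hy => Subgroup.mem_centralizer_singleton_iff.mpr (h2 r r.2 y hy).symm)
  exact Subgroup.mem_centralizer_iff.mpr fun y hy => Subgroup.mem_centralizer_singleton_iff.mp (this hy)

variable {S : Subgroup H} (hS : S.IsSubnormal) (hle : S ≤ generalizedFittingSubgroup H)
  (hC : generalizedFittingSubgroup H ⊓ Subgroup.centralizer (S : Set H) ≤ S)
include hS hle hC

theorem layer_le : layer H ≤ S := sSup_le fun L hL => by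
  rcases component_cases hL hS with h | h
  · exact h
  · intro x hx
    exact hC ⟨Subgroup.mem_sup_left (component_le_layer hL hx),
      (Subgroup.commutator_eq_bot_iff_le_centralizer.mp h) hx⟩

/-- Centralizing the part of `S` in a core suffices. -/
theorem coprime_centralizes {r : ℕ} (hr : r.Prime) {x : H} (hx : (orderOf x).Coprime r)
    (h : ∀ y ∈ S ⊓ pCore r H, x * y = y * x) : ∀ y ∈ pCore r H, x * y = y * x := by
  haveI := Fact.mk hr
  refine thompson_pq (P := S ⊓ pCore r H) ((CfsgLib.Core.isPGroup_pCore r).to_le inf_le_right)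
    (CfsgLib.Core.isPGroup_pCore r) (by rw [Subgroup.normalizer_eq_top (pCore r H)]; exact le_top) hx h
    (by rw [Subgroup.normalizer_eq_top (pCore r H)]; exact Subgroup.mem_top x) fun y hy => h y ⟨?_, hy.1⟩
  have hS' := le_sup_of_subnormal_le_genFitting hS hle
  have hcent : S ≤ Subgroup.centralizer ({y} : Set H) := by
    refine hS'.trans (sup_le ?_ ?_)
    · intro e he
      exact Subgroup.mem_centralizer_singleton_iff.mpr (commute_layer hr ((component_le_iff_in hS).1 he) hy.1)
    · intro f hf
      rw [Subgroup.mem_centralizer_singleton_iff]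
      -- split off the `r`-part
      obtain ⟨a, b, ha, hb, hab, ⟨k, hk⟩, hbc⟩ := CfsgLib.ThompsonNPC.exists_mul_parts r f
      have hzf : Subgroup.zpowers f ≤ fittingSubgroup H ⊓ S := Subgroup.zpowers_le.mpr hf
      have hF := CfsgLib.Core.isNilpotent_fittingSubgroup (G := H)
      have e : Group.IsNilpotent ↥(fittingSubgroup H) ↔
          ∀ (p : ℕ) (_hp : Fact p.Prime) (P : Sylow p ↥(fittingSubgroup H)), (P : Subgroup ↥(fittingSubgroup H)).Normal :=
        (Group.isNilpotent_of_finite_tfae (G := ↥(fittingSubgroup H))).out 0 3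
      obtain ⟨P⟩ := (inferInstance : Nonempty (Sylow r ↥(fittingSubgroup H)))
      have hPn := e.mp hF r ⟨hr⟩ P
      haveI := P.characteristic_of_normal hPn
      have hPr : ∀ v : H, v ∈ fittingSubgroup H → (∃ k, v ^ r ^ k = 1) → v ∈ pCore r H := by
        intro v hv ⟨k, hk⟩
        refine CfsgLib.Core.le_pCore (inferInstance : ((P : Subgroup ↥(fittingSubgroup H)).map
          (fittingSubgroup H).subtype).Normal) (P.2.map _) ⟨⟨v, hv⟩, ?_, rfl⟩
        have hz : IsPGroup r ↥(Subgroup.zpowers (⟨v, hv⟩ : ↥(fittingSubgroup H))) :=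
          CfsgLib.LocalBasic.isPGroup_zpowers_of_pow_eq_one (k := k) (Subtype.ext (by simpa using hk))
        obtain ⟨Q, hQ⟩ := hz.exists_le_sylow
        haveI := Sylow.unique_of_normal P hPn
        rw [Subsingleton.elim P Q]
        exact hQ (Subgroup.mem_zpowers _)
      have ha' : a * y = y * a :=
        (Subgroup.mem_centralizer_iff.mp hy.2 a ⟨(hzf ha).2, hPr a (hzf ha).1 ⟨k, hk⟩⟩)
      -- coprime elements of a nilpotent group commute
      have hb' : b * y = y * b := by
        have hbK : b ∈ (⨆ p : {p : {p : ℕ // p.Prime} // (p : ℕ) ≠ r}, pCore ((p : {p : ℕ // p.Prime}) : ℕ) H) ⊔ pCore r H := by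
          have := (hzf hb).1
          rw [CfsgLib.Core.fittingSubgroup_eq_iSup_pCore] at this
          refine (iSup_le fun p => ?_ : (⨆ p : {p : ℕ // p.Prime}, pCore (p : ℕ) H) ≤ _) this
          by_cases h : (p : ℕ) = r
          · rw [h]; exact le_sup_right
          · exact le_sup_of_le_left (le_iSup (fun p : {p : {p : ℕ // p.Prime} // (p : ℕ) ≠ r} =>
              pCore ((p : {p : ℕ // p.Prime}) : ℕ) H) ⟨p, h⟩)
        set K := ⨆ p : {p : {p : ℕ // p.Prime} // (p : ℕ) ≠ r}, pCore ((p : {p : ℕ // p.Prime}) : ℕ) H with hK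
        rw [← SetLike.mem_coe, Subgroup.mul_normal, Set.mem_mul] at hbK
        obtain ⟨u, hu, v, hv, huv⟩ := hbK
        have hKy : K ≤ Subgroup.centralizer ({y} : Set H) := iSup_le fun p w hw =>
          Subgroup.mem_centralizer_singleton_iff.mpr (commute_cores p.1.2 hr p.2 hw hy.1)
        have hKv : K ≤ Subgroup.centralizer ({v} : Set H) := iSup_le fun p w hw =>
          Subgroup.mem_centralizer_singleton_iff.mpr (commute_cores p.1.2 hr p.2 hw hv)
        -- the `r`-component of `b` is trivial
        have hv1 : v = 1 := by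
          obtain ⟨j, hj⟩ := CfsgLib.Core.isPGroup_pCore (G := H) r ⟨v, hv⟩
          have hj' : v ^ r ^ j = 1 := by simpa using congrArg Subtype.val hj
          haveI : K.Normal := Subgroup.iSup_normal _
          have hc : (orderOf (QuotientGroup.mk' K b)).Coprime r := hbc.coprime_dvd_left (orderOf_map_dvd _ _)
          have hbv : QuotientGroup.mk' K b = QuotientGroup.mk' K v := by
            rw [← huv, map_mul, show QuotientGroup.mk' K u = 1 from (QuotientGroup.eq_one_iff u).mpr hu, one_mul]
          have h1 := Nat.eq_one_of_dvd_coprimes (hc.pow_right j) dvd_rfl (by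
            rw [hbv]; exact orderOf_dvd_of_pow_eq_one (by rw [← map_pow, hj', map_one]))
          rw [orderOf_eq_one_iff, hbv] at h1
          have hvK : v ∈ K := (QuotientGroup.eq_one_iff v).mp h1
          have hKc : ∀ p : {p : {p : ℕ // p.Prime} // (p : ℕ) ≠ r}, (Nat.card ↥(pCore ((p : {p : ℕ // p.Prime}) : ℕ) H)).Coprime r := by
            intro p
            haveI := Fact.mk p.1.2
            obtain ⟨n, hn⟩ := IsPGroup.iff_card.mp (CfsgLib.Core.isPGroup_pCore (G := H) (p : ℕ))
            rw [hn]
            exact ((Nat.coprime_primes p.1.2 hr).mpr p.2).pow_left n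
          have hKle : K ≤ pPrimeCore r H := iSup_le fun p => CfsgLib.Core.le_pPrimeCore inferInstance (hKc p)
          exact Subgroup.mem_bot.mp (CfsgLib.Core.pCore_inf_pPrimeCore (G := H) r hr ▸ ⟨hv, hKle hvK⟩)
        rw [← huv, hv1, mul_one]
        exact Subgroup.mem_centralizer_singleton_iff.mp (hKy hu)
      rw [← hab, mul_assoc, hb', ← mul_assoc, ha', mul_assoc]
  exact hC ⟨Subgroup.mem_sup_right (CfsgLib.Core.pCore_le_fittingSubgroup hr hy.1),
    Subgroup.mem_centralizer_iff.mpr fun s hs => Subgroup.mem_centralizer_singleton_iff.mp (hcent hs)⟩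

/-- A `q`-group normalized by the layer commutes with it, if its meet with the layer is central there. -/
theorem layer_commutes {q : ℕ} (hq : q.Prime) {D : Subgroup H} (hD : IsPGroup q D) (hn : S ≤ Subgroup.normalizer (D : Set H)) :
    ⁅layer H, D⁆ = ⊥ := by
  haveI := Fact.mk hq
  haveI : (layer H).Normal := Subgroup.Normal.mk fun x hx g =>
    ((layer_normal (G := H)).conj_mem x hx g)
  have hDn : layer H ≤ Subgroup.normalizer (D : Set H) := (layer_le hS hle hC).trans hn
  have h1 : ⁅layer H, D⁆ ≤ D ⊓ layer H := le_inf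
    (Subgroup.le_normalizer_iff_commutator_le_right.mp hDn) (Subgroup.commutator_le_left _ _)
  have hsub : (D ⊓ layer H).IsSubnormal :=
    subnormal_of_normalized inf_le_right (Subgroup.Normal.isSubnormal inferInstance)
      (CfsgLib.LocalBasic.normalizer_inf_ge hDn Subgroup.le_normalizer)
  haveI : Group.IsNilpotent ↥(D ⊓ layer H) := IsPGroup.isNilpotent (hD.to_le inf_le_left)
  have hfit : D ⊓ layer H ≤ fittingSubgroup H := nilpotent_subnormal_le hsub inferInstance
  have h2 : ⁅⁅layer H, D⁆, layer H⁆ = ⊥ := Subgroup.commutator_eq_bot_iff_le_centralizer.mpr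
    ((h1.trans hfit).trans fitting_le_centralizer_layer)
  have h3 : ⁅⁅D, layer H⁆, layer H⁆ = ⊥ := by rw [Subgroup.commutator_comm D]; exact h2
  have := Subgroup.commutator_commutator_eq_bot_of_rotate h2 h3
  rwa [layer_perfect] at this

/-- A `q`-subgroup of `H` normalized by `S` commutes with the parts of `S` in the other cores. -/
theorem core_commutes {q r : ℕ} (hq : q.Prime) (hr : r.Prime) (hne : r ≠ q) {D : Subgroup H} (hD : IsPGroup q D)
    (hn : S ≤ Subgroup.normalizer (D : Set H)) {d : H} (hd : d ∈ D) : ∀ y ∈ S ⊓ pCore r H, d * y = y * d := by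
  intro y hy
  have h1 : ⁅d, y⁆ ∈ D := by
    rw [commutatorElement_def, show d * y * d⁻¹ * y⁻¹ = d * (y * d⁻¹ * y⁻¹) by group]
    exact D.mul_mem hd ((Subgroup.mem_normalizer_iff.mp (hn hy.1) _).mp (D.inv_mem hd))
  have h2 : ⁅d, y⁆ ∈ pCore r H := by
    rw [commutatorElement_def]
    exact (pCore r H).mul_mem ((inferInstance : (pCore r H).Normal).conj_mem y hy.2 d) ((pCore r H).inv_mem hy.2)
  have h3 : ⁅d, y⁆ = 1 := Subgroup.disjoint_def.mp
    (disjoint_cores hq hr (Ne.symm hne) hD (CfsgLib.Core.isPGroup_pCore r)) h1 h2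
  exact commutatorElement_eq_one_iff_mul_comm.mp h3

theorem centralizes_off {q : ℕ} (hq : q.Prime) {D : Subgroup H} (hD : IsPGroup q D)
    (hn : S ≤ Subgroup.normalizer (D : Set H)) {d : H} (hd : d ∈ D) :
    (∀ y ∈ layer H, d * y = y * d) ∧ ∀ r : ℕ, r.Prime → r ≠ q → ∀ y ∈ pCore r H, d * y = y * d := by
  refine ⟨fun y hy => ?_, fun r hr hne => coprime_centralizes hS hle hC hr ?_ (core_commutes hS hle hC hq hr hne hD hn hd)⟩
  · exact Subgroup.mem_centralizer_iff.mp
      (Subgroup.commutator_eq_bot_iff_le_centralizer.mp (layer_commutes hS hle hC hq hD hn) hy) d hd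
  · obtain ⟨k, hk⟩ := hD ⟨d, hd⟩
    have hk' : d ^ q ^ k = 1 := by simpa using congrArg Subtype.val hk
    exact (((Nat.coprime_primes hq hr).mpr (Ne.symm hne)).pow_left k).coprime_dvd_left (orderOf_dvd_of_pow_eq_one hk')

/-- The part about primes not dividing the Fitting subgroup. -/
theorem eq_bot_of_not_dvd {q : ℕ} (hq : q.Prime) (hq0 : pCore q H = ⊥) {Q : Subgroup H} (hQ : IsPGroup q Q)
    (hn : S ≤ Subgroup.normalizer (Q : Set H)) : Q = ⊥ := by
  rw [Subgroup.eq_bot_iff_forall]
  intro x hx
  obtain ⟨h1, h2⟩ := centralizes_off hS hle hC hq hQ hn hx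
  have hxc := centralizes_genFitting h1 fun r hr y hy => by
    by_cases h : r = q
    · rw [h, hq0, Subgroup.mem_bot] at hy
      rw [hy, mul_one, one_mul]
    · exact h2 r hr h y hy
  have hxF := centralizer_genFitting_le hxc
  have hN : (generalizedFittingSubgroup H ⊓ Subgroup.centralizer (generalizedFittingSubgroup H : Set H)).Normal :=
    inferInstance
  haveI : IsMulCommutative ↥(generalizedFittingSubgroup H ⊓ Subgroup.centralizer (generalizedFittingSubgroup H : Set H)) :=
    ⟨⟨fun a b => Subtype.ext (Subgroup.mem_centralizer_iff.mp b.2.2 a a.2.1)⟩⟩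
  letI : CommGroup ↥(generalizedFittingSubgroup H ⊓ Subgroup.centralizer (generalizedFittingSubgroup H : Set H)) :=
    { (inferInstance : Group _) with mul_comm := fun a b => IsMulCommutative.is_comm.comm a b }
  have hxfit : x ∈ fittingSubgroup H := CfsgLib.Core.le_fittingSubgroup hN CommGroup.isNilpotent ⟨hxF, hxc⟩
  haveI : Fact q.Prime := ⟨hq⟩
  have hsub : (Subgroup.zpowers x).IsSubnormal := by
    have hxn : Subgroup.zpowers x ≤ generalizedFittingSubgroup H ⊓ Subgroup.centralizer (generalizedFittingSubgroup H : Set H) :=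
      Subgroup.zpowers_le.mpr ⟨hxF, hxc⟩
    refine subnormal_of_normalized hxn hN.isSubnormal fun g hg => ?_
    refine (Subgroup.centralizer_le_normalizer _) (Subgroup.mem_centralizer_iff.mpr fun v hv => ?_)
    exact Subgroup.mem_centralizer_iff.mp hg.2 v (hxn hv).1
  have := CfsgLib.Core.isPGroup_subnormal_le_pCore hsub (hQ.to_le (Subgroup.zpowers_le.mpr hx))
    (Subgroup.mem_zpowers x)
  rwa [hq0, Subgroup.mem_bot] at this

theorem centre_core_le {p : ℕ} (hp : p.Prime) :
    ((Subgroup.center ↥(pCore p H)).map (pCore p H).subtype) ≤ S := by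
  rintro _ ⟨z, hz, rfl⟩
  refine hC ⟨Subgroup.mem_sup_right (CfsgLib.Core.pCore_le_fittingSubgroup hp z.2), ?_⟩
  have hzc := centralizes_genFitting (x := (z : H)) (fun y hy => (commute_layer hp hy z.2).symm) fun r hr y hy => by
    by_cases h : r = p
    · subst h
      exact (congrArg Subtype.val (Subgroup.mem_center_iff.mp hz ⟨y, hy⟩)).symm
    · exact commute_cores hp hr (Ne.symm h) z.2 hy
  exact Subgroup.centralizer_le (SetLike.coe_subset_coe.mpr hle) hzc

end CfsgLib.BenderLemma
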